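import Cfsg.Prelude.Def_KGroupFacts
import Cfsg.Agent.ChevMult.Data

/-!
Finite stem extensions of `G₂(q)`, `q ≥ 5`, and `F₄(q)`, `q ≥ 3`, are trivial.
-/

set_option autoImplicit false

namespace CfsgLib.ChevMult

open Cfsg.Lie CfsgLib.Chevalley CfsgLib.ChevSteinberg

variable {D : ChevalleyDatum} {F : Type*} [Field F] [Finite F]

theorem exists_units_zpow_ne {d : ℕ} (hd : 0 < d) (h : d + 1 < Nat.card F) {k : ℤ}
    (hk : k.natAbs = d) : ∃ z : Fˣ, z ^ k ≠ 1 := by
  obtain ⟨g, hg⟩ := IsCyclic.exists_generator (α := Fˣ)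
  refine ⟨g, fun e => ?_⟩
  have h1 : (orderOf g : ℤ) ∣ k := orderOf_dvd_iff_zpow_eq_one.mpr e
  rw [orderOf_eq_card_of_forall_mem_zpowers hg, Nat.card_units] at h1
  rw [← Int.natAbs_dvd_natAbs, hk, Int.natAbs_natCast] at h1
  have := Nat.le_of_dvd hd h1
  omega

/-- The data from the tables make every central extension within the derived subgroup trivial. -/
theorem eq_one_of_data {S : Sys D} (W : Witness S) {Γ : Type*} [Group Γ] (π : Γ →* GL D.Idx F)
    (hrange : π.range = D.group F) (hc : π.ker ≤ Subgroup.center Γ)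
    (hle : π.ker ≤ commutator Γ) (hq : 3 ≤ Nat.card F) {scal : List (List ℤ)}
    (hscal : chkScal D scal = true) {steps : List PairStep} {ds : List ℕ}
    (hsteps : chkSteps D [] steps = true) (hexp : chkExp D steps ds = true)
    (hds : ∀ d ∈ ds, 0 < d ∧ d + 1 < Nat.card F)
    (habel : ∀ r < D.nroots, ∀ (t u : F) (X Y : Γ),
      π X = S.xG F r t → π Y = S.xG F r u → X * Y = Y * X)
    (hmul : ∀ T : StSys S F Γ, T.MulH) (hker : (StSys.torF D F).ker = ⊥) : π.ker = ⊥ := by
  simp only [chkScal, List.all_eq_true, List.mem_range, decide_eq_true_eq] at hscal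
  obtain ⟨z, hz⟩ := exists_units_zpow_ne (F := F) one_pos (by omega) (k := 1) rfl
  let E : Ext S F Γ :=
    { π := π
      range_eq := hrange
      central := hc
      scal := fun r hr => ⟨fun j => z ^ (scal.getD r []).getD j 0, by
        rw [torusVal_cop, hscal r hr]
        exact fun e => hz (Units.ext e)⟩
      abel := habel }
  have h2F : ∀ d : ℤ, d.natAbs = 2 → (∀ z : Fˣ, z ^ d = 1) → (2 : F) ≠ 0 := by
    intro d hd hall h2
    by_cases h4 : 4 ≤ Nat.card F
    · obtain ⟨z, hz⟩ := exists_units_zpow_ne (F := F) two_pos (by omega) hd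
      exact hz (hall z)
    · have h3 : Nat.card F = 3 := by omega
      have : Fintype F := Fintype.ofFinite F
      have h3' : (3 : F) = 0 := by
        have := FiniteField.cast_card_eq_zero F
        rwa [← Nat.card_eq_fintype_card, h3, Nat.cast_ofNat] at this
      have : (1 : F) = 0 := by linear_combination h3' - h2
      exact one_ne_zero this
  have hz' : ∀ p ∈ steps, p.n ≠ [] → p.Q = [] → ∃ z : Fˣ, z ^ cop D p.n p.r ≠ 1 := by
    intro p hp hn hQ
    simp only [chkExp, List.all_eq_true, Bool.or_eq_true, List.isEmpty_iff, Bool.not_eq_true',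
      decide_eq_true_eq] at hexp
    rcases hexp p hp with (e | e) | e
    · exact absurd e hn
    · rw [hQ] at e; simp at e
    · exact exists_units_zpow_ne (hds _ e).1 (hds _ e).2 rfl
  have hpos := E.rel_of_steps h2F steps [] hz' hsteps (by simp)
  let T := E.stSys (E.rel_all hpos)
  have hgen : Subgroup.closure {g | ∃ r < D.nroots, ∃ t, g = T.y r t} = ⊤ :=
    E.gen_of_perfect (E.perfect_of_ker_le hle)
  have := T.ker_eq_map (hmul T) W hgen
  rw [hker, Subgroup.map_bot] at this
  exact this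

theorem multiplier_one_of.{u} {D : ChevalleyDatum} {F : Type u} [Field F] [Finite F]
    (h : ∀ (Γ : Type u) [Group Γ] (π : Γ →* GL D.Idx F), π.range = D.group F →
      π.ker ≤ Subgroup.center Γ → π.ker ≤ commutator Γ → π.ker = ⊥) :
    Cfsg.HasCyclicSchurMultiplier ↥(D.group F) 1 := by
  refine ⟨⟨↥(D.group F), inferInstance, inferInstance, MonoidHom.id _,
    ⟨Function.surjective_id, by simp [MonoidHom.ker_id], by simp [MonoidHom.ker_id]⟩, ⟨?_⟩⟩,
    fun Γ _ _ σ hσ => ?_⟩
  · have : Unique ↥(MonoidHom.id ↥(D.group F)).ker := by rw [MonoidHom.ker_id]; infer_instance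
    exact MulEquiv.ofUnique
  · obtain ⟨hs, hc, hle⟩ := hσ
    let π := (D.group F).subtype.comp σ
    have hπ : π.ker = σ.ker := MonoidHom.ker_comp_of_injective σ _ (D.group F).subtype_injective
    have := h Γ π (by
      rw [MonoidHom.range_comp, MonoidHom.range_eq_top.mpr hs, ← MonoidHom.range_eq_map,
        Subgroup.range_subtype]) (hπ ▸ hc) (hπ ▸ hle)
    refine ⟨1, fun x => ⟨1, ?_⟩⟩
    have hx : (x : Γ) ∈ π.ker := by rw [hπ]; exact x.2
    rw [this, Subgroup.mem_bot] at hx
    exact Subtype.ext hx.symm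

theorem multiplier_G2 {F : Type*} [Field F] [Fintype F] (hF : 5 ≤ Fintype.card F) :
    Cfsg.HasCyclicSchurMultiplier ↥(Cfsg.Lie.chevG2.group F) 1 := by
  classical
  refine multiplier_one_of fun Γ _ π hr hc hle => ?_
  rw [← Nat.card_eq_fintype_card] at hF
  obtain ⟨s, hs⟩ : ∃ s : F, s ∉ ({0, -1} : Finset F) ∪
      (Polynomial.X ^ 2 + Polynomial.X + 1 : Polynomial F).roots.toFinset := by
    refine (Finset.exists_mem_notMem_of_card_lt_card ?_ : ∃ s, s ∈ (Finset.univ : Finset F) ∧ _).imp
      fun s hs => hs.2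
    have h1 := Finset.card_union_le ({0, -1} : Finset F)
      (Polynomial.X ^ 2 + Polynomial.X + 1 : Polynomial F).roots.toFinset
    have h2 : ({0, -1} : Finset F).card ≤ 2 := Finset.card_le_two
    have h3 := (Multiset.toFinset_card_le _).trans
      (Polynomial.card_roots' (Polynomial.X ^ 2 + Polynomial.X + 1 : Polynomial F))
    have h4 : (Polynomial.X ^ 2 + Polynomial.X + 1 : Polynomial F).natDegree = 2 := by
      compute_degree!
    rw [Finset.card_univ, ← Nat.card_eq_fintype_card]
    omega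
  simp only [Finset.mem_union, Finset.mem_insert, Finset.mem_singleton, not_or,
    Multiset.mem_toFinset] at hs
  have hs2 : s * s + s + 1 ≠ 0 := by
    intro e
    refine hs.2 ((Polynomial.mem_roots ?_).mpr ?_)
    · exact fun h => by simpa using congrArg (fun p : Polynomial F => p.coeff 0) h
    · simp only [Polynomial.IsRoot, Polynomial.eval_add, Polynomial.eval_pow, Polynomial.eval_X,
        Polynomial.eval_one]
      linear_combination e
  refine eq_one_of_data witness_G2 π hr hc hle (by omega) chkScal_G2 chkSteps_G2 chkExp_G2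
    (fun d hd => ?_) (fun r hrl => ?_) (fun T i t u ht hu => ?_) ker_torF_G2
  · simp only [List.mem_cons, List.not_mem_nil, or_false] at hd
    omega
  · have h := chkScal_G2
    simp only [chkScal, List.all_eq_true, List.mem_range, decide_eq_true_eq] at h
    exact abel_of_scalars hr hc hrl _ (h r hrl)
      ⟨s, hs.1.1, fun e => hs.1.2 (by linear_combination e), hs2⟩
  · have h1 : ∀ t u : F, t ≠ 0 → u ≠ 0 →
        T.hT (chevG2.simple 1) t * T.hT (chevG2.simple 1) u = T.hT (chevG2.simple 1) (t * u) :=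
      fun t u ht hu => by
        rw [show chevG2.simple 1 = 6 by decide +kernel]
        exact hT_mul_of_a2 T chkA2_G2 ht hu
    obtain ⟨i, hi⟩ := i
    have : i = 0 ∨ i = 1 := by
      have : chevG2.rank = 2 := by decide +kernel
      omega
    rcases this with rfl | rfl
    · exact hT_mul_edge witness_G2 T ⟨1, by decide +kernel⟩ ⟨0, hi⟩ (show chevG2.cartan 1 (chevG2.simple 0) = -1 by decide +kernel) h1 ht hu
    · exact h1 t u ht hu

theorem multiplier_F4 {F : Type*} [Field F] [Fintype F] (hF : 3 ≤ Fintype.card F) :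
    Cfsg.HasCyclicSchurMultiplier ↥(Cfsg.Lie.chevF4.group F) 1 := by
  refine multiplier_one_of fun Γ _ π hr hc hle => ?_
  rw [← Nat.card_eq_fintype_card] at hF
  refine eq_one_of_data witness_F4 π hr hc hle (by omega) chkScal_F4 chkSteps_F4 chkExp_F4
    (fun d hd => ?_) (fun r hrl => ?_) (fun T i t u ht hu => ?_) ker_torF_F4
  · simp only [List.mem_cons, List.not_mem_nil, or_false] at hd
    omega
  · have h := chkAbel_F4
    simp only [chkAbel, List.all_eq_true, List.mem_range, Bool.and_eq_true, Bool.or_eq_true,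
      decide_eq_true_eq] at h
    obtain ⟨⟨⟨⟨ha, hb, h1, h2, h3, h4, h5, h6⟩, ht⟩, ea⟩, eb⟩ := h r hrl
    rcases ht with e | e
    · exact abel_of_comm hr hc ha hb hrl ⟨h1, h2⟩ ⟨h3, h4⟩ ⟨h5, h6⟩ (Or.inl rfl) e ea eb
    · exact abel_of_comm hr hc ha hb hrl ⟨h1, h2⟩ ⟨h3, h4⟩ ⟨h5, h6⟩ (Or.inr rfl) e ea eb
  · obtain ⟨h0, h1, h2, h3⟩ := chkA2_F4
    obtain ⟨i, hi⟩ := i
    have : i = 0 ∨ i = 1 ∨ i = 2 ∨ i = 3 := by
      have : chevF4.rank = 4 := by decide +kernel
      omega
    rcases this with rfl | rfl | rfl | rfl <;> simp only []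
    · rw [show chevF4.simple 0 = 33 by decide +kernel]; exact hT_mul_of_a2 T h0 ht hu
    · rw [show chevF4.simple 1 = 27 by decide +kernel]; exact hT_mul_of_a2 T h1 ht hu
    · rw [show chevF4.simple 2 = 25 by decide +kernel]; exact hT_mul_of_a2 T h2 ht hu
    · rw [show chevF4.simple 3 = 24 by decide +kernel]; exact hT_mul_of_a2 T h3 ht hu

end CfsgLib.ChevMult
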