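import Cfsg.Agent.ChevSteinberg.Torus
import Cfsg.Agent.Schur.CentralCommutator
import Cfsg.Agent.CurtisTits2.Local

/-!
Canonical lifts of the root elements into a central extension of a Chevalley group, as in
Steinberg's proof of universality, and the derivation of his relations for them from a table of
steps on pairs of positive roots.
-/

set_option autoImplicit false

namespace CfsgLib.ChevMult

open Cfsg.Lie CfsgLib.Chevalley CfsgLib.ChevSteinberg CfsgLib.CurtisTits2
open scoped commutatorElement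

variable {D : ChevalleyDatum}

/-- A central extension of the Chevalley group with chosen torus elements moving each root
subgroup, in which the preimage of every root subgroup is commutative. -/
structure Ext (S : Sys D) (F : Type*) [Field F] (Γ : Type*) [Group Γ] where
  π : Γ →* GL D.Idx F
  range_eq : π.range = D.group F
  central : π.ker ≤ Subgroup.center Γ
  scal : ∀ r < D.nroots, ∃ c : ℕ → Fˣ, (torusVal D c r : F) ≠ 1
  abel : ∀ r < D.nroots, ∀ (t u : F) (X Y : Γ),
    π X = S.xG F r t → π Y = S.xG F r u → X * Y = Y * X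

namespace Ext

variable {S : Sys D} {F : Type*} [Field F] {Γ : Type*} [Group Γ] (E : Ext S F Γ)

theorem exists_lift {g : GL D.Idx F} (hg : g ∈ D.group F) : ∃ z, E.π z = g := by
  rw [← E.range_eq] at hg
  exact hg

theorem tor_mem_diag (_E : Ext S F Γ) (c : ℕ → Fˣ) : tor D F c ∈ D.diagonalSubgroup F := by
  rw [S.diagonal_eq]
  exact ⟨c, rfl⟩

theorem diag_mem_group (_E : Ext S F Γ) {g : GL D.Idx F} (hg : g ∈ D.diagonalSubgroup F) :
    g ∈ D.group F := S.diagonal_le_group F hg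

theorem exists_lift_tor (c : ℕ → Fˣ) : ∃ z, E.π z = tor D F c :=
  E.exists_lift (E.diag_mem_group (E.tor_mem_diag c))

/-- The chosen torus element for a root. -/
noncomputable def hh (r : ℕ) : Γ :=
  if hr : r < D.nroots then (E.exists_lift_tor (E.scal r hr).choose).choose else 1

/-- Its scalar. -/
noncomputable def aa (r : ℕ) : F :=
  if hr : r < D.nroots then (torusVal D (E.scal r hr).choose r : F) else 0

theorem aa_sub_ne {r : ℕ} (hr : r < D.nroots) : E.aa r - 1 ≠ 0 := by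
  rw [aa, dif_pos hr, sub_ne_zero]
  exact (E.scal r hr).choose_spec

theorem π_hh {r : ℕ} (hr : r < D.nroots) :
    E.π (E.hh r) ∈ D.diagonalSubgroup F ∧
      ∀ v, E.π (E.hh r) * S.xG F r v * (E.π (E.hh r))⁻¹ = S.xG F r (E.aa r * v) := by
  rw [hh, dif_pos hr, aa, dif_pos hr, (E.exists_lift_tor _).choose_spec]
  exact ⟨E.tor_mem_diag _, fun v => S.tor_conj F _ hr v⟩

/-- Some lift of a root element. -/
noncomputable def zz (r : ℕ) (t : F) : Γ :=
  if hr : r < D.nroots then (E.exists_lift (S.xG_mem F hr t)).choose else 1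

theorem π_zz {r : ℕ} (hr : r < D.nroots) (t : F) : E.π (E.zz r t) = S.xG F r t := by
  rw [zz, dif_pos hr]
  exact (E.exists_lift (S.xG_mem F hr t)).choose_spec

/-- The canonical lift of a root element. -/
noncomputable def y (r : ℕ) (t : F) : Γ := ⁅E.hh r, E.zz r ((E.aa r - 1)⁻¹ * t)⁆

theorem π_y {r : ℕ} (hr : r < D.nroots) (t : F) : E.π (E.y r t) = S.xG F r t := by
  rw [y, map_commutatorElement, commutatorElement_def, E.π_zz hr, (E.π_hh hr).2, S.xG_inv,
    S.xG_add]
  congr 1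
  have := E.aa_sub_ne hr
  field_simp
  ring

theorem y_out {r : ℕ} (hr : ¬ r < D.nroots) (t : F) : E.y r t = 1 := by
  rw [y, hh, dif_neg hr, commutatorElement_one_left]

theorem π_y' (r : ℕ) (t : F) : E.π (E.y r t) = S.xG F r t := by
  by_cases hr : r < D.nroots
  · exact E.π_y hr t
  · rw [E.y_out hr, map_one]
    exact Units.ext (by rw [Units.val_one, S.xG_val, x_out hr])

theorem mem_center {z : Γ} (hz : E.π z = 1) (g : Γ) : g * z = z * g :=
  Subgroup.mem_center_iff.1 (E.central hz) g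

theorem y_add {r : ℕ} (hr : r < D.nroots) (t u : F) : E.y r t * E.y r u = E.y r (t + u) := by
  set Z1 := E.zz r ((E.aa r - 1)⁻¹ * t)
  set Z2 := E.zz r ((E.aa r - 1)⁻¹ * u)
  have hc : Z1 * ⁅E.hh r, Z2⁆ = ⁅E.hh r, Z2⁆ * Z1 :=
    E.abel r hr _ u _ _ (E.π_zz hr _) (E.π_y hr u)
  have e : E.y r (t + u) = ⁅E.hh r, Z1 * Z2⁆ := by
    refine Schur.commutator_congr E.central rfl ?_
    rw [E.π_zz hr, map_mul, E.π_zz hr, E.π_zz hr, S.xG_add, mul_add]
  rw [e, Schur.commutator_mul_right' hc]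
  rfl

theorem y_zero {r : ℕ} (hr : r < D.nroots) : E.y r 0 = 1 := by simpa using E.y_add hr 0 0

theorem y_inv {r : ℕ} (hr : r < D.nroots) (t : F) : (E.y r t)⁻¹ = E.y r (-t) :=
  inv_eq_of_mul_eq_one_right (by rw [E.y_add hr, add_neg_cancel, E.y_zero hr])

/-- Elements over the torus scale the lifts. -/
theorem conj_diag {k : Γ} (hk : E.π k ∈ D.diagonalSubgroup F) {r : ℕ} (hr : r < D.nroots) {b : F}
    (hb : ∀ v, E.π k * S.xG F r v * (E.π k)⁻¹ = S.xG F r (b * v)) (t : F) :
    k * E.y r t * k⁻¹ = E.y r (b * t) := by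
  rw [y, show k * ⁅E.hh r, E.zz r ((E.aa r - 1)⁻¹ * t)⁆ * k⁻¹ =
    ⁅k * E.hh r * k⁻¹, k * E.zz r ((E.aa r - 1)⁻¹ * t) * k⁻¹⁆ by
      simp only [commutatorElement_def]; group]
  refine Schur.commutator_congr E.central ?_ ?_
  · rw [map_mul, map_mul, map_inv, S.diagonal_comm F hk (E.π_hh hr).1, mul_inv_cancel_right]
  · rw [map_mul, map_mul, map_inv, E.π_zz hr, E.π_zz hr, hb]
    congr 1
    ring

theorem comm_lift {k : Γ} (hk : E.π k ∈ D.diagonalSubgroup F) {r : ℕ} (hr : r < D.nroots) {b : F}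
    (hb : ∀ v, E.π k * S.xG F r v * (E.π k)⁻¹ = S.xG F r (b * v)) {Z : Γ} {v : F}
    (hZ : E.π Z = S.xG F r v) : ⁅k, Z⁆ = E.y r ((b - 1) * v) := by
  rw [Schur.commutator_congr E.central (g' := k) (h' := E.y r v) rfl
    (hZ.trans (E.π_y hr v).symm), commutatorElement_def, E.conj_diag hk hr hb v, E.y_inv hr,
    E.y_add hr]
  congr 1
  ring

/-- Elements normalizing the torus and moving a root subgroup move the lifts. -/
theorem conj_root {g : Γ} (hg : ∀ d ∈ D.diagonalSubgroup F,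
      E.π g * d * (E.π g)⁻¹ ∈ D.diagonalSubgroup F) {r s : ℕ} (hr : r < D.nroots)
    (hs : s < D.nroots) {c : F} (hc : c ≠ 0)
    (hgc : ∀ v, E.π g * S.xG F r v * (E.π g)⁻¹ = S.xG F s (c * v)) (t : F) :
    g * E.y r t * g⁻¹ = E.y s (c * t) := by
  have hk : ∀ w, E.π (g * E.hh r * g⁻¹) * S.xG F s w * (E.π (g * E.hh r * g⁻¹))⁻¹ =
      S.xG F s (E.aa r * w) := by
    intro w
    have h1 := (E.π_hh hr).2 (c⁻¹ * w)
    have h2 := hgc (c⁻¹ * w)
    have h3 := hgc (E.aa r * (c⁻¹ * w))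
    rw [← mul_assoc c, mul_inv_cancel₀ hc, one_mul] at h2
    rw [← h1] at h3
    rw [map_mul, map_mul, map_inv, ← h2,
      show S.xG F s (E.aa r * w) = S.xG F s (c * (E.aa r * (c⁻¹ * w))) by
        rw [mul_left_comm c, ← mul_assoc c, mul_inv_cancel₀ hc, one_mul], ← h3]
    group
  rw [y, show g * ⁅E.hh r, E.zz r ((E.aa r - 1)⁻¹ * t)⁆ * g⁻¹ =
    ⁅g * E.hh r * g⁻¹, g * E.zz r ((E.aa r - 1)⁻¹ * t) * g⁻¹⁆ by
      simp only [commutatorElement_def]; group]
  rw [E.comm_lift (k := g * E.hh r * g⁻¹) (v := c * ((E.aa r - 1)⁻¹ * t)) ?_ hs hk ?_]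
  · congr 1
    have := E.aa_sub_ne hr
    field_simp
  · rw [map_mul, map_mul, map_inv]
    exact hg _ (E.π_hh hr).1
  · rw [map_mul, map_mul, map_inv, E.π_zz hr, hgc]

/-- The commutator word of a pair of roots in the lifts. -/
noncomputable def word (r s : ℕ) (t u : F) : Γ :=
  ((D.commWord F r s t u).map fun p => E.y p.1 p.2).prod

/-- The commutator relation for a pair of roots. -/
def Rel (r s : ℕ) : Prop :=
  ∀ t u : F, (E.y r t)⁻¹ * E.y s u * E.y r t = E.y s u * E.word r s t u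

/-- The system of lifts with the relations on some pairs. -/
noncomputable def psys : PSys S F Γ (fun r s => r = s ∨ E.Rel r s) where
  y := E.y
  θ := E.π
  θ_y r _ _ t := E.π_y' r t
  add r hr _ t u := E.y_add hr t u
  comm r _ s _ h h1 _ t u := (h.resolve_left fun e => h1 e.symm) t u

theorem π_word (r s : ℕ) (t u : F) : E.π (E.word r s t u) = S.wG F (D.commWord F r s t u) := by
  rw [word, map_list_prod, List.map_map]
  exact congrArg List.prod (List.map_congr_left fun p _ => E.π_y' p.1 p.2)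

theorem π_rel {r s : ℕ} (hr : r < D.nroots) (hs : s < D.nroots) (h1 : s ≠ r) (h2 : s ≠ D.neg r)
    (t u : F) : E.π ((E.y r t)⁻¹ * E.y s u * E.y r t) = E.π (E.y s u * E.word r s t u) := by
  simp only [map_mul, map_inv, E.π_y', E.π_word]
  exact S.xG_comm F hr hs h1 h2 t u

theorem word_mem {r s : ℕ} (t u : F) {P : Set ℕ} (h : ∀ c ∈ D.commTerms r s, c.1 ∈ P) :
    E.word r s t u ∈ E.psys.ySub P := by
  refine Subgroup.list_prod_mem _ fun g hg => ?_
  simp only [ChevalleyDatum.commWord, List.map_map, List.mem_map, Function.comp_apply] at hg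
  obtain ⟨c, hc, rfl⟩ := hg
  exact E.psys.y_mem (h c hc) _

/-- A positive set closed under commutators whose pairs have their relations. -/
def Good (P : Set ℕ) : Prop :=
  (∀ r ∈ P, D.nroots / 2 ≤ r ∧ r < D.nroots) ∧ (∀ r ∈ P, ∀ s ∈ P, r = s ∨ E.Rel r s) ∧
    ∀ r ∈ P, ∀ s ∈ P, s ≠ r → ∀ c ∈ D.commTerms r s, c.1 ∈ P

theorem eq_of_good {P : Set ℕ} (hP : E.Good P) {a b : Γ} (ha : a ∈ E.psys.ySub P)
    (hb : b ∈ E.psys.ySub P) (h : E.π a = E.π b) : a = b := by
  refine mul_inv_eq_one.1 (E.psys.eq_one_of_pos hP.1 hP.2.1 hP.2.2 (mul_mem ha (inv_mem hb)) ?_)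
  show E.π (a * b⁻¹) = 1
  rw [map_mul, map_inv, h, mul_inv_cancel]

/-- The relation from the reversed one. -/
theorem rel_symm {r s : ℕ} (hr : r < D.nroots) (hs : s < D.nroots) (h1 : s ≠ r)
    (h2 : s ≠ D.neg r) (hrev : E.Rel s r) {P : Set ℕ} (hP : E.Good P)
    (ht : ∀ c ∈ D.commTerms r s ++ D.commTerms s r, c.1 ∈ P) : E.Rel r s := by
  intro t u
  have hw : (E.y s u)⁻¹ * (E.y r t)⁻¹ * E.y s u * E.y r t = (E.word s r u t)⁻¹ := by
    have := hrev u t
    rw [show (E.y s u)⁻¹ * (E.y r t)⁻¹ * E.y s u * E.y r t =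
      ((E.y s u)⁻¹ * E.y r t * E.y s u)⁻¹ * E.y r t by group, this]
    group
  have key : (E.word s r u t)⁻¹ = E.word r s t u := by
    refine E.eq_of_good hP (inv_mem (E.word_mem u t fun c hc => ht c (List.mem_append_right _ hc)))
      (E.word_mem t u fun c hc => ht c (List.mem_append_left _ hc)) ?_
    rw [← hw, show (E.y s u)⁻¹ * (E.y r t)⁻¹ * E.y s u * E.y r t =
      (E.y s u)⁻¹ * ((E.y r t)⁻¹ * E.y s u * E.y r t) by group, map_mul, E.π_rel hr hs h1 h2,
      map_inv, map_mul, inv_mul_cancel_left]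
  rw [← key, ← hw]
  group

/-- The relation from a torus element fixing `x_s` and moving `x_r`. -/
theorem rel_torus {r s : ℕ} (hr : r < D.nroots) (hs : s < D.nroots) (h1 : s ≠ r)
    (h2 : s ≠ D.neg r) {P : Set ℕ} (hP : E.Good P) (hrP : r ∈ P)
    (ht : ∀ c ∈ D.commTerms r s, c.1 ∈ P) (c : ℕ → Fˣ) (hcr : (torusVal D c r : F) ≠ 1)
    (hcs : torusVal D c s = 1) : E.Rel r s := by
  intro t u
  set a : F := (torusVal D c r : F)
  set z : F → Γ := fun t =>
    (E.word r s t u)⁻¹ * ((E.y s u)⁻¹ * (E.y r t)⁻¹ * E.y s u * E.y r t) with hz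
  have hπz : ∀ t, E.π (z t) = 1 := by
    intro t
    rw [hz, map_mul, map_inv, show (E.y s u)⁻¹ * (E.y r t)⁻¹ * E.y s u * E.y r t =
      (E.y s u)⁻¹ * ((E.y r t)⁻¹ * E.y s u * E.y r t) by group, map_mul, E.π_rel hr hs h1 h2,
      map_inv, map_mul, inv_mul_cancel_left, inv_mul_cancel]
  have hC : ∀ t, (E.y s u)⁻¹ * (E.y r t)⁻¹ * E.y s u * E.y r t = E.word r s t u * z t :=
    fun t => by rw [hz, mul_inv_cancel_left]
  have hadd : ∀ t t', z (t + t') = z t * z t' := by
    intro t t'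
    have hcz := E.mem_center (hπz t)
    have e : (E.y s u)⁻¹ * (E.y r (t + t'))⁻¹ * E.y s u * E.y r (t + t') =
        E.word r s t' u * ((E.y r t')⁻¹ * E.word r s t u * E.y r t') * (z t * z t') := by
      rw [← E.y_add hr]
      calc (E.y s u)⁻¹ * (E.y r t * E.y r t')⁻¹ * E.y s u * (E.y r t * E.y r t')
          = ((E.y s u)⁻¹ * (E.y r t')⁻¹ * E.y s u * E.y r t') * ((E.y r t')⁻¹ *
              ((E.y s u)⁻¹ * (E.y r t)⁻¹ * E.y s u * E.y r t) * E.y r t') := by group
        _ = E.word r s t' u * z t' * ((E.y r t')⁻¹ * E.word r s t u * (z t * E.y r t')) := by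
            rw [hC, hC]; group
        _ = E.word r s t' u * (z t' * ((E.y r t')⁻¹ * E.word r s t u * E.y r t')) * z t := by
            rw [← hcz]; group
        _ = _ := by
            rw [← E.mem_center (hπz t'), E.mem_center (hπz t') (z t)]; group
    have hmem : ∀ t, E.word r s t u ∈ E.psys.ySub P := fun t => E.word_mem t u ht
    have hyr : E.y r t' ∈ E.psys.ySub P := E.psys.y_mem hrP t'
    have key : E.word r s t' u * ((E.y r t')⁻¹ * E.word r s t u * E.y r t') =
        E.word r s (t + t') u := by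
      refine E.eq_of_good hP (mul_mem (hmem t') (mul_mem (mul_mem (inv_mem hyr) (hmem t)) hyr))
        (hmem _) ?_
      have h3 := congrArg E.π e
      have h4 := congrArg E.π (hC (t + t'))
      rw [map_mul E.π _ (z t * z t'), map_mul E.π (z t), hπz, hπz, one_mul, mul_one] at h3
      rw [map_mul E.π _ (z (t + t')), hπz, mul_one] at h4
      rw [← h3, h4]
    rw [key, hC] at e
    exact mul_left_cancel e
  obtain ⟨g, hg⟩ := E.exists_lift_tor c
  have hgd : E.π g ∈ D.diagonalSubgroup F := by rw [hg]; exact E.tor_mem_diag c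
  have hy : ∀ k, k < D.nroots → ∀ v, g * E.y k v * g⁻¹ = E.y k ((torusVal D c k : F) * v) :=
    fun k hk v => E.conj_diag hgd hk (fun w => by rw [hg]; exact S.tor_conj F c hk w) v
  have hinv : ∀ t, z (a * t) = z t := by
    intro t
    have hc1 : g * z t * g⁻¹ = z t := by rw [E.mem_center (hπz t) g, mul_inv_cancel_right]
    have e1 : g * ((E.y s u)⁻¹ * (E.y r t)⁻¹ * E.y s u * E.y r t) * g⁻¹ =
        (E.y s u)⁻¹ * (E.y r (a * t))⁻¹ * E.y s u * E.y r (a * t) := by
      rw [← hy r hr t]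
      have hus : g * E.y s u * g⁻¹ = E.y s u := by rw [hy s hs u, hcs, Units.val_one, one_mul]
      conv_rhs => rw [← hus]
      group
    have key : g * E.word r s t u * g⁻¹ = E.word r s (a * t) u := by
      refine E.eq_of_good hP ?_ (E.word_mem _ u ht) ?_
      · refine closure_conj_mem ?_ (E.word_mem t u ht)
        rintro _ ⟨k, hk, v, rfl⟩
        show g * E.y k v * g⁻¹ ∈ _
        rw [hy k (hP.1 k hk).2 v]
        exact E.psys.y_mem hk _
      · have h3 := congrArg E.π e1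
        have h4 := congrArg E.π (hC (a * t))
        rw [hC t] at h3
        simp only [map_mul, map_inv, hπz, mul_one] at h3 h4 ⊢
        rw [h3, h4]
    rw [hC, hC, show g * (E.word r s t u * z t) * g⁻¹ =
      g * E.word r s t u * g⁻¹ * (g * z t * g⁻¹) by group, key, hc1] at e1
    exact (mul_left_cancel e1).symm
  have hz1 : ∀ t, z t = 1 := by
    intro t
    have ha : a - 1 ≠ 0 := sub_ne_zero.2 hcr
    set v := (a - 1)⁻¹ * t
    have h5 : a * v = t + v := by
      simp only [v]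
      field_simp
      ring
    have h6 := hinv v
    rw [h5, hadd] at h6
    exact mul_eq_right.1 h6
  have := hC t
  rw [hz1, mul_one] at this
  rw [← this]
  group

/-- The relation when `x_s` is a product of known elements. -/
theorem rel_comm {r s a b : ℕ} (hr : r < D.nroots) (hs : s < D.nroots) (h1 : s ≠ r)
    (h2 : s ≠ D.neg r) (ha : a < D.nroots) (hb : b < D.nroots) (hab : E.Rel a b)
    {pre post : List (ℕ × ℤ × ℕ × ℕ)} {cf : ℤ} {e : ℕ}
    (hterms : D.commTerms a b = pre ++ (s, cf, e, 1) :: post) (hcf : (cf : F) ≠ 0)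
    {Q : Set ℕ} (hQ : E.Good Q) (hsQ : s ∈ Q) (ht : ∀ c ∈ D.commTerms r s, c.1 ∈ Q)
    (hA : ∀ x, (x = a ∨ x = b ∨ ∃ k ∈ pre ++ post, k.1 = x) →
      x ∈ Q ∧ E.Rel r x ∧ ∀ c ∈ D.commTerms r x, c.1 ∈ Q) : E.Rel r s := by
  intro t u
  set A : Set ℕ := {x | x = a ∨ x = b ∨ ∃ k ∈ pre ++ post, k.1 = x}
  have hmem : E.y s u ∈ E.psys.ySub A := by
    set w : F := (cf : F) * (-1) ^ e with hw
    have hw0 : w ≠ 0 := mul_ne_zero hcf (pow_ne_zero _ (by simp))
    have hcomm := hab 1 (u / w)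
    set f : ℕ × ℤ × ℕ × ℕ → Γ := fun k =>
      E.y k.1 ((k.2.1 : F) * (-1) ^ k.2.2.1 * (u / w) ^ k.2.2.2)
    have hword : E.word a b 1 (u / w) = (pre.map f).prod * (E.y s u * (post.map f).prod) := by
      simp only [word, ChevalleyDatum.commWord, hterms, List.map_append, List.map_cons,
        List.map_map, Function.comp_def, pow_one, List.prod_append, List.prod_cons, f]
      rw [← hw, mul_div_cancel₀ u hw0]
    rw [hword] at hcomm
    have hpre : (pre.map f).prod ∈ E.psys.ySub A := Subgroup.list_prod_mem _ fun g hg => by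
      obtain ⟨k, hk, rfl⟩ := List.mem_map.1 hg
      exact E.psys.y_mem (Or.inr (Or.inr ⟨k, List.mem_append_left _ hk, rfl⟩)) _
    have hpost : (post.map f).prod ∈ E.psys.ySub A := Subgroup.list_prod_mem _ fun g hg => by
      obtain ⟨k, hk, rfl⟩ := List.mem_map.1 hg
      exact E.psys.y_mem (Or.inr (Or.inr ⟨k, List.mem_append_right _ hk, rfl⟩)) _
    have hya : ∀ x, E.y a x ∈ E.psys.ySub A := fun x => E.psys.y_mem (P := A) (Or.inl rfl) x
    have hyb : ∀ x, E.y b x ∈ E.psys.ySub A :=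
      fun x => E.psys.y_mem (P := A) (Or.inr (Or.inl rfl)) x
    have : E.y s u = (pre.map f).prod⁻¹ * ((E.y b (u / w))⁻¹ *
        ((E.y a 1)⁻¹ * E.y b (u / w) * E.y a 1)) * (post.map f).prod⁻¹ := by
      rw [hcomm]; group
    rw [this]
    exact mul_mem (mul_mem (inv_mem hpre) (mul_mem (inv_mem (hyb _))
      (mul_mem (mul_mem (inv_mem (hya _)) (hyb _)) (hya _)))) (inv_mem hpost)
  refine E.eq_of_good hQ ?_ (mul_mem (E.psys.y_mem hsQ u) (E.word_mem t u ht))
    (E.π_rel hr hs h1 h2 t u)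
  have := closure_conj_mem (a := (E.y r t)⁻¹) (H := E.psys.ySub Q) ?_ hmem
  · rwa [inv_inv] at this
  rintro _ ⟨x, hx, v, rfl⟩
  obtain ⟨hxQ, hrel, hterm⟩ := hA x hx
  show (E.y r t)⁻¹ * E.y x v * (E.y r t)⁻¹⁻¹ ∈ _
  rw [inv_inv, hrel t v]
  exact mul_mem (E.psys.y_mem hxQ v) (E.word_mem t v hterm)

end Ext

end CfsgLib.ChevMult
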