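import Cfsg.Agent.ChevSteinberg.TorusHom
import Cfsg.Agent.SteinbergSL.Symbol
import Cfsg.Agent.ChevMult.Lift

/-!
Checks of the tables, and the Steinberg system on the lifts.
-/

set_option autoImplicit false

namespace CfsgLib.ChevMult

open Cfsg.Lie CfsgLib.Chevalley CfsgLib.ChevSteinberg CfsgLib.CurtisTits2
open scoped commutatorElement

variable {D : ChevalleyDatum}

/-- One derivation step: the relation of the pair `(r, s)` by a cocharacter `n` trivial on `s`, or
by reversal if `n` is empty, inside the closed set `P`; alternatively through the commutator of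
`a`, `b` inside the closed set `Q`. -/
structure PairStep where
  r : ℕ
  s : ℕ
  P : List ℕ
  n : List ℤ
  a : ℕ
  b : ℕ
  Q : List ℕ

/-- The pairing of a cocharacter with a root. -/
def cop (D : ChevalleyDatum) (n : List ℤ) (s : ℕ) : ℤ :=
  ((List.range D.rank).map fun j => n.getD j 0 * D.cartan j s).sum

/-- A closed positive list with all pairs known. -/
def chkGood (D : ChevalleyDatum) (K : List (ℕ × ℕ)) (P : List ℕ) : Bool :=
  P.all fun x => decide (D.nroots / 2 ≤ x ∧ x < D.nroots) &&
    P.all fun y => decide (x = y) ||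
      (decide ((x, y) ∈ K) && (D.commTerms x y).all fun c => decide (c.1 ∈ P))

/-- The terms of a pair lie in a list. -/
def chkTerms (D : ChevalleyDatum) (r s : ℕ) (P : List ℕ) : Bool :=
  (D.commTerms r s).all fun c => decide (c.1 ∈ P)

/-- The check of the alternative derivation. -/
def chkAlt (D : ChevalleyDatum) (K : List (ℕ × ℕ)) (p : PairStep) : Bool :=
  match (D.commTerms p.a p.b).findIdx? (fun c => decide (c.1 = p.s)) with
  | none => false
  | some i =>
    let T := D.commTerms p.a p.b
    let c := T.getD i (0, 0, 0, 0)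
    let A := p.a :: p.b :: ((T.take i ++ T.drop (i + 1)).map fun k => k.1)
    decide (c.2.1.natAbs ∈ [1, 2]) && decide (c.2.2.2 = 1) && decide (p.a < D.nroots) &&
      decide (p.b < D.nroots) && decide ((p.a, p.b) ∈ K) && decide (p.a ≠ p.b) &&
      chkGood D K p.Q && decide (p.s ∈ p.Q) && chkTerms D p.r p.s p.Q &&
      A.all fun x => decide (x ∈ p.Q) && decide ((p.r, x) ∈ K) && chkTerms D p.r x p.Q

/-- The check of one step. -/
def chkStep (D : ChevalleyDatum) (K : List (ℕ × ℕ)) (p : PairStep) : Bool :=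
  decide (p.r < D.nroots ∧ p.s < D.nroots ∧ D.nroots / 2 ≤ p.r ∧ D.nroots / 2 ≤ p.s ∧ p.s ≠ p.r) &&
  chkGood D K p.P && chkTerms D p.r p.s p.P &&
  bif p.n.isEmpty then decide ((p.s, p.r) ∈ K) && chkTerms D p.s p.r p.P
  else decide (p.r ∈ p.P) && decide (cop D p.n p.s = 0) &&
    (decide ((cop D p.n p.r).natAbs ∈ [1, 2, 3]) &&
      (p.Q.isEmpty || (decide ((cop D p.n p.r).natAbs = 2) && chkAlt D K p)))

/-- The check of a list of steps. -/
def chkSteps (D : ChevalleyDatum) : List (ℕ × ℕ) → List PairStep → Bool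
  | K, [] => (List.range D.nroots).all fun r => (List.range D.nroots).all fun s =>
      decide (r < D.nroots / 2) || decide (s < D.nroots / 2) || decide (r = s) ||
        decide ((r, s) ∈ K)
  | K, p :: L => chkStep D K p && chkSteps D ((p.r, p.s) :: K) L

theorem torusVal_cop {F : Type*} [Field F] (n : List ℤ) (z : Fˣ) (s : ℕ) :
    torusVal D (fun j => z ^ n.getD j 0) s = z ^ cop D n s := by
  simp only [torusVal, cop, ← zpow_mul]
  induction D.rank with
  | zero => simp
  | succ k ih => rw [Finset.prod_range_succ, ih, List.range_succ]; simp [zpow_add]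

namespace Ext

variable {S : Sys D} {F : Type*} [Field F] {Γ : Type*} [Group Γ] (E : Ext S F Γ)

theorem good_of_chk {K : List (ℕ × ℕ)} (hK : ∀ x ∈ K, E.Rel x.1 x.2) {P : List ℕ}
    (h : chkGood D K P = true) : E.Good {x | x ∈ P} := by
  simp only [chkGood, List.all_eq_true, Bool.and_eq_true, Bool.or_eq_true,
    decide_eq_true_eq] at h
  refine ⟨fun x hx => (h x hx).1, fun x hx y hy => ?_, fun x hx y hy hne c hc => ?_⟩
  · rcases (h x hx).2 y hy with e | ⟨e, -⟩
    · exact Or.inl e
    · exact Or.inr (hK _ e)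
  · exact ((h x hx).2 y hy |>.resolve_left fun e => hne e.symm).2 c hc

theorem pos_ne_neg {r s : ℕ} (hr : r < D.nroots) (hp : D.nroots / 2 ≤ r)
    (hps : D.nroots / 2 ≤ s) (_E : Ext S F Γ) : s ≠ D.neg r := by
  have := (S.neg_half r hr).mpr hp
  omega

/-- The steps are valid: each `z ^ d = 1` obstruction is met by the alternative derivation. -/
theorem rel_of_steps
    (h2F : ∀ d : ℤ, d.natAbs = 2 → (∀ z : Fˣ, z ^ d = 1) → (2 : F) ≠ 0)
:
    ∀ (L : List PairStep) (K : List (ℕ × ℕ)),
      (∀ p ∈ L, p.n ≠ [] → p.Q = [] → ∃ z : Fˣ, z ^ cop D p.n p.r ≠ 1) →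
      chkSteps D K L = true → (∀ x ∈ K, E.Rel x.1 x.2) →
      ∀ r s, r < D.nroots → s < D.nroots → D.nroots / 2 ≤ r → D.nroots / 2 ≤ s → r ≠ s →
        E.Rel r s := by
  intro L
  induction L with
  | nil =>
    intro K _ h hK r s hr hs hpr hps hne
    simp only [chkSteps, List.all_eq_true, List.mem_range, Bool.or_eq_true,
      decide_eq_true_eq] at h
    rcases h r hr s hs with ((e | e) | e) | e
    · omega
    · omega
    · exact absurd e hne
    · exact hK _ e
  | cons p L ih =>
    intro K hz h hK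
    simp only [chkSteps, Bool.and_eq_true] at h
    refine ih _ (fun q hq' => hz q (List.mem_cons_of_mem _ hq')) h.2 fun x hx => ?_
    rcases List.mem_cons.mp hx with rfl | hx
    swap
    · exact hK x hx
    have hstep := h.1
    simp only [chkStep, Bool.and_eq_true, decide_eq_true_eq, chkTerms, List.all_eq_true] at hstep
    obtain ⟨⟨⟨⟨hr, hs, hpr, hps, hne⟩, hgood⟩, hterm⟩, hrest⟩ := hstep
    have hneg := E.pos_ne_neg hr hpr hps
    have hP := E.good_of_chk hK hgood
    show E.Rel p.r p.s
    by_cases hn : p.n = []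
    · simp only [hn, List.isEmpty_nil, cond_true, Bool.and_eq_true, decide_eq_true_eq,
        List.all_eq_true] at hrest
      refine E.rel_symm hr hs hne hneg (hK _ hrest.1) hP fun c hc => ?_
      rcases List.mem_append.mp hc with hc | hc
      · exact hterm c hc
      · exact hrest.2 c hc
    simp only [List.isEmpty_iff, hn, decide_false, cond_false, Bool.and_eq_true, Bool.or_eq_true,
      decide_eq_true_eq, show p.n.isEmpty = false from by simpa using hn] at hrest
    obtain ⟨⟨hrP, hd0⟩, hd, hQ⟩ := hrest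
    by_cases hex : ∃ z : Fˣ, z ^ cop D p.n p.r ≠ 1
    · obtain ⟨z, hz'⟩ := hex
      refine E.rel_torus hr hs hne hneg hP hrP hterm (fun j => z ^ p.n.getD j 0) ?_ ?_
      · rw [torusVal_cop]
        exact fun e => hz' (Units.ext e)
      · rw [torusVal_cop, hd0, zpow_zero]
    push Not at hex
    rcases hQ with hQ | ⟨hd2, hA⟩
    · obtain ⟨z, hz'⟩ := hz p List.mem_cons_self hn hQ
      exact absurd (hex z) hz'
    have h2 := h2F _ hd2 hex
    unfold chkAlt at hA
    split at hA
    · simp at hA
    rename_i i hi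
    obtain ⟨hil, hi1, -⟩ := List.findIdx?_eq_some_iff_getElem.mp hi
    simp only [decide_eq_true_eq] at hi1
    simp only [chkTerms, Bool.and_eq_true, decide_eq_true_eq, List.all_eq_true,
      List.getD_eq_getElem _ _ hil] at hA
    obtain ⟨⟨⟨⟨⟨⟨⟨⟨⟨hc, hc1⟩, hal⟩, hbl⟩, habK⟩, -⟩, hgQ⟩, hsQ⟩, htQ⟩, hAll⟩ := hA
    set T := D.commTerms p.a p.b with hT
    have hTi : T[i] = (p.s, T[i].2.1, T[i].2.2.1, 1) := by
      rw [← hc1, ← hi1]
    have hsplit : T = T.take i ++ (p.s, T[i].2.1, T[i].2.2.1, 1) :: T.drop (i + 1) := by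
      rw [← hTi, List.getElem_cons_drop, List.take_append_drop]
    refine E.rel_comm hr hs hne hneg hal hbl (hK _ habK) (hT.symm.trans hsplit) ?_
      (E.good_of_chk hK hgQ) hsQ htQ fun x hx => ?_
    · simp only [List.mem_cons, List.not_mem_nil, or_false] at hc
      rcases hc with hc | hc
      · rcases Int.natAbs_eq_iff.mp hc with e | e <;> rw [e] <;> simp
      · rcases Int.natAbs_eq_iff.mp hc with e | e <;> rw [e] <;> simp [h2]
    · obtain ⟨⟨h3, h4⟩, h5⟩ := hAll x (by
        simp only [List.mem_cons, List.mem_map]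
        rcases hx with e | e | ⟨k, hk, e⟩
        · exact Or.inl e
        · exact Or.inr (Or.inl e)
        · exact Or.inr (Or.inr ⟨k, hk, e⟩))
      exact ⟨h3, hK _ h4, h5⟩

end Ext

end CfsgLib.ChevMult
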