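import Cfsg.Agent.ChevMult.Steps

/-!
From the relations on positive pairs to Steinberg's relations; multiplicativity of the `h_p`; the
resulting triviality of central perfect extensions.
-/

set_option autoImplicit false

namespace CfsgLib.ChevMult

open Cfsg.Lie CfsgLib.Chevalley CfsgLib.ChevSteinberg CfsgLib.CurtisTits2
open scoped commutatorElement

variable {D : ChevalleyDatum}

section Abel

variable {S : Sys D} {F : Type*} [Field F] {Γ : Type*} [Group Γ] {π : Γ →* GL D.Idx F}
  (hrange : π.range = D.group F) (hc : π.ker ≤ Subgroup.center Γ)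

include hrange in
theorem lift_mem {g : GL D.Idx F} (hg : g ∈ D.group F) : ∃ z, π z = g := by
  rw [← hrange] at hg
  exact hg

include hrange hc in
/-- The preimage of a root subgroup is commutative if it consists of commutators of elements
commuting with it. -/
theorem abel_of_comm {a b r : ℕ} (ha : a < D.nroots) (hb : b < D.nroots) (hr : r < D.nroots)
    (hba : b ≠ a ∧ b ≠ D.neg a) (har : r ≠ a ∧ r ≠ D.neg a) (hbr : r ≠ b ∧ r ≠ D.neg b) {cf : ℤ}
    (hcf : cf = 1 ∨ cf = -1) (hterms : D.commTerms a b = [(r, cf, 1, 1)])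
    (ea : D.commTerms a r = []) (eb : D.commTerms b r = []) (t u : F) (X Y : Γ)
    (hX : π X = S.xG F r t) (hY : π Y = S.xG F r u) : X * Y = Y * X := by
  obtain ⟨A, hA⟩ := lift_mem hrange (S.xG_mem F ha (1 : F))
  obtain ⟨B, hB⟩ := lift_mem hrange (S.xG_mem F hb (-(cf : F) * t))
  have hcomm := S.xG_comm F ha hb hba.1 hba.2 1 (-(cf : F) * t)
  have hw : S.wG F (D.commWord F a b 1 (-(cf : F) * t)) = S.xG F r t := by
    simp only [ChevalleyDatum.commWord, hterms, List.map_cons, List.map_nil, Sys.wG,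
      List.prod_cons, List.prod_nil, mul_one, pow_one]
    congr 1
    rcases hcf with rfl | rfl <;> simp
  rw [hw] at hcomm
  have hX' : π X = π ⁅B⁻¹, A⁻¹⁆ := by
    rw [hX, map_commutatorElement, map_inv, map_inv, hA, hB, commutatorElement_def, inv_inv,
      inv_inv]
    calc S.xG F r t = (S.xG F b (-(cf : F) * t))⁻¹ *
        (S.xG F b (-(cf : F) * t) * S.xG F r t) := by group
      _ = _ := by rw [← hcomm]; group
  have hcom : ∀ (c : ℕ) (v : F), c < D.nroots → r ≠ c → r ≠ D.neg c → D.commTerms c r = [] →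
      ∀ {C : Γ}, π C = S.xG F c v → π (Y * C⁻¹ * Y⁻¹) = π C⁻¹ := by
    intro c v hcl h1 h2 h3 C hC
    have := S.xG_comm F hcl hr h1 h2 v u
    simp only [ChevalleyDatum.commWord, h3, List.map_nil, Sys.wG, List.prod_nil, mul_one] at this
    rw [map_mul, map_mul, map_inv, map_inv, hC, hY]
    calc S.xG F r u * (S.xG F c v)⁻¹ * (S.xG F r u)⁻¹
        = ((S.xG F c v)⁻¹ * S.xG F r u * S.xG F c v) * (S.xG F c v)⁻¹ * (S.xG F r u)⁻¹ := by
          rw [this]
      _ = _ := by group
  have hfix : Y * ⁅B⁻¹, A⁻¹⁆ * Y⁻¹ = ⁅B⁻¹, A⁻¹⁆ := by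
    rw [show Y * ⁅B⁻¹, A⁻¹⁆ * Y⁻¹ = ⁅Y * B⁻¹ * Y⁻¹, Y * A⁻¹ * Y⁻¹⁆ by
      simp only [commutatorElement_def]; group]
    exact Schur.commutator_congr hc (hcom b _ hb hbr.1 hbr.2 eb hB)
      (hcom a _ ha har.1 har.2 ea hA)
  obtain ⟨z, hz, rfl⟩ : ∃ z ∈ π.ker, X = ⁅B⁻¹, A⁻¹⁆ * z :=
    ⟨⁅B⁻¹, A⁻¹⁆⁻¹ * X, by rw [MonoidHom.mem_ker, map_mul, map_inv, hX', inv_mul_cancel],
      by group⟩
  have hzc := Subgroup.mem_center_iff.1 (hc hz)
  rw [mul_inv_eq_iff_eq_mul] at hfix
  rw [mul_assoc, ← hzc, ← mul_assoc, ← hfix, mul_assoc]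

include hrange hc in
/-- The preimage of a root subgroup is commutative if the torus induces all scalars on it and the
field has five elements. -/
theorem abel_of_scalars {r : ℕ} (hr : r < D.nroots) (n : List ℤ) (hn : cop D n r = 1)
    (hF : ∃ s : F, s ≠ 0 ∧ 1 + s ≠ 0 ∧ s * s + s + 1 ≠ 0) (t u : F) (X Y : Γ)
    (hX : π X = S.xG F r t) (hY : π Y = S.xG F r u) : X * Y = Y * X := by
  choose Z hZ using fun v : F => lift_mem hrange (S.xG_mem F hr v)
  let c : F → F → Γ := fun v w => ⁅Z v, Z w⁆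
  have hker : ∀ v w, c v w ∈ π.ker := fun v w => by
    rw [MonoidHom.mem_ker, map_commutatorElement, hZ, hZ, commutatorElement_eq_one_iff_mul_comm,
      S.xG_add, S.xG_add, add_comm]
  have hcen : ∀ v w g, g * c v w = c v w * g := fun v w => Subgroup.mem_center_iff.1 (hc (hker v w))
  have hl : ∀ v v' w, c (v + v') w = c v' w * c v w := fun v v' w => by
    show ⁅_, _⁆ = _
    rw [Schur.commutator_congr hc (g' := Z v * Z v') (h' := Z w)
      (by rw [map_mul, hZ, hZ, hZ, S.xG_add]) rfl]
    exact Schur.commutator_mul_left' (hcen v' w _)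
  have hrr : ∀ v w w', c v (w + w') = c v w * c v w' := fun v w w' => by
    show ⁅_, _⁆ = _
    rw [Schur.commutator_congr hc (g' := Z v) (h' := Z w * Z w') rfl
      (by rw [map_mul, hZ, hZ, hZ, S.xG_add])]
    exact Schur.commutator_mul_right' (hcen v w' _)
  have hinv : ∀ a : F, a ≠ 0 → ∀ v w, c (a * v) (a * w) = c v w := by
    intro a ha v w
    set e : ℕ → Fˣ := fun j => Units.mk0 a ha ^ n.getD j 0
    obtain ⟨g, hg⟩ := lift_mem hrange (S.diagonal_le_group F
      (show tor D F e ∈ D.diagonalSubgroup F by rw [S.diagonal_eq]; exact ⟨e, rfl⟩))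
    have hgv : ∀ v, π (g * Z v * g⁻¹) = π (Z (a * v)) := fun v => by
      rw [map_mul, map_mul, map_inv, hg, hZ, hZ, S.tor_conj F e hr, torusVal_cop, hn, zpow_one,
        Units.val_mk0]
    have h1 : g * c v w * g⁻¹ = c v w := by rw [hcen, mul_inv_cancel_right]
    rw [← h1]
    show ⁅_, _⁆ = _
    rw [← Schur.commutator_congr hc (hgv v) (hgv w)]
    simp only [c, commutatorElement_def]
    group
  let f : F → Γ := fun w => c 1 w
  have hf : ∀ v w, v ≠ 0 → c v w = f (w / v) := fun v w hv => by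
    have := hinv v hv 1 (w / v)
    rwa [mul_one, mul_div_cancel₀ w hv] at this
  obtain ⟨s, hs0, hs1, hs2⟩ := hF
  have hone : ∀ w, f w = 1 := by
    intro x
    set w := x / (s * s + s + 1)
    have key : f (w * s + w * (s * s + s + 1)) = f (w * s) := by
      have h1 := hl 1 s (w * (s * (1 + s)))
      rw [hf _ _ hs1, hf _ _ hs0, show w * (s * (1 + s)) / (1 + s) = w * s by field_simp,
        show w * (s * (1 + s)) / s = w * (1 + s) by field_simp] at h1
      show c 1 _ = c 1 _
      rw [show w * s + w * (s * s + s + 1) = w * (1 + s) + w * (s * (1 + s)) by ring, hrr]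
      exact h1.symm
    rw [show f (w * s + w * (s * s + s + 1)) = f (w * s) * f (w * (s * s + s + 1)) from hrr _ _ _,
      mul_eq_left] at key
    rwa [show w * (s * s + s + 1) = x by exact div_mul_cancel₀ x hs2] at key
  have hc1 : c t u = 1 := by
    by_cases ht : t = 0
    · show ⁅_, _⁆ = _
      rw [Schur.commutator_congr hc (g' := 1) (h' := Z u) (by rw [map_one, hZ, ht, S.xG_zero]) rfl,
        commutatorElement_one_left]
    · rw [hf t u ht, hone]
  rw [← commutatorElement_eq_one_iff_mul_comm,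
    Schur.commutator_congr hc (hX.trans (hZ t).symm) (hY.trans (hZ u).symm)]
  exact hc1

end Abel

namespace Ext

variable {S : Sys D} {F : Type*} [Field F] {Γ : Type*} [Group Γ] (E : Ext S F Γ)

/-- The relations for positive pairs give all of them. -/
theorem rel_all (hpos : ∀ r s, r < D.nroots → s < D.nroots → D.nroots / 2 ≤ r →
      D.nroots / 2 ≤ s → r ≠ s → E.Rel r s) :
    ∀ r s, r < D.nroots → s < D.nroots → s ≠ r → s ≠ D.neg r → E.Rel r s := by
  intro r s hr hs h1 h2
  obtain ⟨L, hLr, hLs⟩ : ∃ L : List (Fin D.rank), D.nroots / 2 ≤ (S.wperm L ⟨r, hr⟩ : ℕ) ∧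
      D.nroots / 2 ≤ (S.wperm L ⟨s, hs⟩ : ℕ) := by
    obtain ⟨L0, a, hLa⟩ : ∃ (L : List (Fin D.rank)) (a : Fin D.rank),
        (S.wperm L (S.simpleF a) : ℕ) = r := by
      refine S.root_induction (P := fun r => ∃ (L : List (Fin D.rank)) (a : Fin D.rank),
        (S.wperm L (S.simpleF a) : ℕ) = r) ?_ ?_ r hr
      · exact fun i hi => ⟨[], ⟨i, hi⟩, by simp [Sys.wperm, Sys.simpleF]⟩
      · rintro i hi r hr ⟨L, a, e⟩
        refine ⟨⟨i, hi⟩ :: L, a, ?_⟩
        rw [S.wperm_cons, Equiv.Perm.mul_apply, S.srefl_val, e]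
        exact S.w_w i hi r hr
    have hL0 : S.wperm L0.reverse ⟨r, hr⟩ = S.simpleF a := by
      rw [S.wperm_reverse, Equiv.Perm.inv_eq_iff_eq]
      exact Fin.ext hLa.symm
    set s' := S.wperm L0.reverse ⟨s, hs⟩ with hs'
    by_cases hp : D.nroots / 2 ≤ (s' : ℕ)
    · exact ⟨L0.reverse, by rw [hL0]; exact S.simple_pos a a.isLt, hp⟩
    obtain ⟨W, hW⟩ := S.exists_longest
    obtain ⟨m, hm⟩ := exists_simple_to_neg S W hW a
    have hWa : S.wperm W.reverse (S.simpleF a) = S.negF (S.simpleF m) := by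
      rw [S.wperm_reverse, Equiv.Perm.inv_eq_iff_eq, S.wperm_negF, hm, S.negF_negF]
    set s'' := S.wperm W.reverse s' with hs''
    have hWs : S.wperm W s'' = s' := by
      rw [hs'', S.wperm_reverse]
      exact Equiv.apply_symm_apply _ _
    have hpp : D.nroots / 2 ≤ (s'' : ℕ) := by
      by_contra hlt
      have h3 := hW (S.negF s'') (S.root_lt_pos s''.isLt (by omega))
      rw [S.wperm_negF, hWs, Sys.negF_val] at h3
      have := (S.neg_half _ s'.isLt).mp h3
      exact hp this
    have hne : s'' ≠ S.simpleF m := fun e => by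
      rw [e, hm, ← hL0, hs', ← S.wperm_negF] at hWs
      exact h2 (congrArg Fin.val ((S.wperm L0.reverse).injective hWs.symm))
    refine ⟨m :: (W.reverse ++ L0.reverse), ?_, ?_⟩
    · rw [S.wperm_cons, S.wperm_append, Equiv.Perm.mul_apply, Equiv.Perm.mul_apply, hL0, hWa,
        show S.srefl m (S.negF (S.simpleF m)) = S.simpleF m by
          refine Fin.ext ?_
          rw [S.srefl_val, Sys.negF_val, show ((S.simpleF m : Fin D.nroots) : ℕ) = D.simple m from rfl,
            S.w_neg m m.isLt _ (S.wf.simple_lt m m.isLt), S.w_simple m.isLt,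
            S.wf.neg_neg _ (S.wf.simple_lt m m.isLt)]]
      exact S.simple_pos m m.isLt
    · rw [S.wperm_cons, S.wperm_append, Equiv.Perm.mul_apply, Equiv.Perm.mul_apply, ← hs']
      exact S.srefl_pos m hpp hne
  intro t u
  set w := S.wN F L
  obtain ⟨g, hg⟩ := E.exists_lift (S.monomial_le_group F w.2)
  have hnorm : ∀ d ∈ D.diagonalSubgroup F, E.π g * d * (E.π g)⁻¹ ∈ D.diagonalSubgroup F :=
    fun d hd => by
      rw [hg]
      exact (Subgroup.mem_normalizer_iff.mp (S.monomial_le_normalizer F w.2) d).mp hd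
  have hy : ∀ k : Fin D.nroots, ∀ v, ∃ v', g * E.y k v * g⁻¹ = E.y (S.wperm L k) v' := by
    intro k v
    obtain ⟨c, hc, hcv⟩ := S.conj_root F w k
    rw [S.perm_wN] at hcv
    exact ⟨_, E.conj_root hnorm k.isLt (Fin.isLt _) hc (fun x => by rw [hg]; exact (hcv x).1) v⟩
  let P : Set ℕ := {x | D.nroots / 2 ≤ x ∧ x < D.nroots}
  have hP : E.Good P := ⟨fun x hx => hx, fun x hx y hy => by
      by_cases e : x = y
      · exact Or.inl e
      · exact Or.inr (hpos x y hx.2 hy.2 hx.1 hy.1 e),
    fun x hx y hy _ c hc => ⟨by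
      have := S.commTerms_pos hx.2 hx.1 hy.2 hy.1 hc
      have := hx.1
      have := hy.1
      omega, S.commTerms_lt hx.2 hy.2 hc⟩⟩
  have hmem : ∀ k : Fin D.nroots, D.nroots / 2 ≤ (S.wperm L k : ℕ) → ∀ v,
      g * E.y k v * g⁻¹ ∈ E.psys.ySub P := fun k hk v => by
    obtain ⟨v', e⟩ := hy k v
    rw [e]
    exact E.psys.y_mem (P := P) ⟨hk, Fin.isLt _⟩ v'
  have hterm : ∀ c (hc : c ∈ D.commTerms r s),
      D.nroots / 2 ≤ (S.wperm L ⟨c.1, S.commTerms_lt hr hs hc⟩ : ℕ) := by
    intro c hc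
    obtain ⟨m, hm, hmp⟩ := S.exists_vec_pos (Fin.isLt _) hLr
    refine S.pos_of_vec (Fin.isLt _) hm ?_
    obtain ⟨hi, hj, hv⟩ := S.commTerms_vec hr hs hc
    rw [show S.vec m (S.wperm L ⟨c.1, S.commTerms_lt hr hs hc⟩) =
        c.2.2.1 * S.vec m (S.wperm L ⟨r, hr⟩) + c.2.2.2 * S.vec m (S.wperm L ⟨s, hs⟩) by
      rw [S.vec_wperm L _ m hm, S.vec_wperm L ⟨r, hr⟩ m hm, S.vec_wperm L ⟨s, hs⟩ m hm,
        Finset.mul_sum, Finset.mul_sum, ← Finset.sum_add_distrib]
      refine Finset.sum_congr rfl fun x _ => ?_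
      rw [hv x x.isLt]
      ring]
    have := S.vec_pos _ (Fin.isLt _) hLs m hm
    have : (0 : ℤ) < c.2.2.1 * S.vec m (S.wperm L ⟨r, hr⟩) := mul_pos (by omega) hmp
    nlinarith
  refine (MulAut.conj g).injective ?_
  refine E.eq_of_good hP ?_ ?_ ?_
  · simp only [map_mul, map_inv, MulAut.conj_apply]
    exact mul_mem (mul_mem (inv_mem (hmem ⟨r, hr⟩ hLr t)) (hmem ⟨s, hs⟩ hLs u))
      (hmem ⟨r, hr⟩ hLr t)
  · rw [map_mul, MulAut.conj_apply]
    refine mul_mem (hmem ⟨s, hs⟩ hLs u) ?_
    rw [word, map_list_prod, List.map_map]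
    refine Subgroup.list_prod_mem _ fun x hx => ?_
    simp only [ChevalleyDatum.commWord, List.map_map, List.mem_map, Function.comp_apply] at hx
    obtain ⟨c, hc, rfl⟩ := hx
    exact hmem ⟨c.1, S.commTerms_lt hr hs hc⟩ (hterm c hc) _
  · rw [MulAut.conj_apply, MulAut.conj_apply, map_mul E.π, map_mul E.π g,
      map_mul E.π (g * _), map_mul E.π g, E.π_rel hr hs h1 h2]

/-- The Steinberg system of lifts. -/
noncomputable def stSys (h : ∀ r s, r < D.nroots → s < D.nroots → s ≠ r → s ≠ D.neg r →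
    E.Rel r s) : StSys S F Γ where
  y := E.y
  θ := E.π
  out _ hr t := E.y_out hr t
  add r t u := by
    by_cases hr : r < D.nroots
    · exact E.y_add hr t u
    · simp only [E.y_out hr, one_mul]
  comm r hr s hs h1 h2 := h r s hr hs h1 h2
  θ_y := E.π_y'

include E in
/-- The lifts generate a perfect extension. -/
theorem gen_of_perfect (hperf : commutator Γ = ⊤) :
    Subgroup.closure {g | ∃ r < D.nroots, ∃ t, g = E.y r t} = ⊤ := by
  set K := Subgroup.closure {g | ∃ r < D.nroots, ∃ t, g = E.y r t}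
  have hle : D.group F ≤ K.map E.π := by
    rw [S.group_eq]
    refine (Subgroup.closure_le _).2 ?_
    rintro _ ⟨r, hr, t, rfl⟩
    exact ⟨E.y r t, Subgroup.subset_closure ⟨r, hr, t, rfl⟩, E.π_y hr t⟩
  have hsplit : ∀ g : Γ, ∃ k ∈ K, ∃ z ∈ E.π.ker, g = k * z := by
    intro g
    obtain ⟨k, hk, e⟩ := hle (show E.π g ∈ D.group F by rw [← E.range_eq]; exact ⟨g, rfl⟩)
    exact ⟨k, hk, k⁻¹ * g, by rw [MonoidHom.mem_ker, map_mul, map_inv, e, inv_mul_cancel],
      by group⟩
  rw [eq_top_iff, ← hperf, commutator_def, Subgroup.commutator_le]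
  intro a _ b _
  obtain ⟨k, hk, z, hz, rfl⟩ := hsplit a
  obtain ⟨k', hk', z', hz', rfl⟩ := hsplit b
  rw [Schur.commutator_congr E.central (g' := k) (h' := k')
    (by rw [map_mul, (hz : E.π z = 1), mul_one]) (by rw [map_mul, (hz' : E.π z' = 1), mul_one])]
  exact K.mul_mem (K.mul_mem (K.mul_mem hk hk') (K.inv_mem hk)) (K.inv_mem hk')

include E in
/-- An extension inside the derived subgroup is perfect. -/
theorem perfect_of_ker_le (h : E.π.ker ≤ commutator Γ) : commutator Γ = ⊤ := by
  have hy : ∀ r t, E.y r t ∈ commutator Γ := fun r t =>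
    Subgroup.commutator_mem_commutator (Subgroup.mem_top _) (Subgroup.mem_top _)
  rw [eq_top_iff]
  intro g _
  have hle : D.group F ≤ (commutator Γ).map E.π := by
    rw [S.group_eq]
    refine (Subgroup.closure_le _).2 ?_
    rintro _ ⟨r, hr, t, rfl⟩
    exact ⟨E.y r t, hy r t, E.π_y hr t⟩
  obtain ⟨k, hk, e⟩ := hle (show E.π g ∈ D.group F by rw [← E.range_eq]; exact ⟨g, rfl⟩)
  have hk2 : k⁻¹ * g ∈ E.π.ker := by
    rw [MonoidHom.mem_ker, map_mul, map_inv, e, inv_mul_cancel]
  rw [show g = k * (k⁻¹ * g) by group]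
  exact mul_mem hk (h hk2)

end Ext

section Rank

variable {S : Sys D} {F : Type*} [Field F] {G : Type*} [Group G]

/-- Check: the roots `a`, `b`, `c = a + b` and their negatives form a system of type `A₂`, with the
sign `e` on `±c`. -/
def chkRootA2 (D : ChevalleyDatum) (a b c : ℕ) (e : ℤ) : Bool :=
  let rt : List ℕ := [0, a, c, D.neg a, 0, b, D.neg c, D.neg b, 0]
  let sg : List ℤ := [1, 1, e, 1, 1, 1, e, 1, 1]
  decide (e.natAbs = 1) &&
  (List.range 3).all fun i => (List.range 3).all fun j => decide (i = j) ||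
    (decide (rt.getD (3 * i + j) 0 < D.nroots) &&
      (decide (D.neg (rt.getD (3 * i + j) 0) = rt.getD (3 * j + i) 0)) &&
      (List.range 3).all fun k => (List.range 3).all fun l => decide (k = l) ||
        decide (k = i ∧ l = j) ||
        let p := rt.getD (3 * i + j) 0
        let q := rt.getD (3 * k + l) 0
        if j = k then decide (i = l) ||
          (decide (q ≠ p) && decide (q ≠ D.neg p) &&
            decide (D.commTerms p q = [(rt.getD (3 * i + l) 0,
              sg.getD (3 * i + j) 0 * sg.getD (3 * k + l) 0 * sg.getD (3 * i + l) 0, 1, 1)]))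
        else decide (i = l) ||
          (decide (q ≠ p) && decide (q ≠ D.neg p) && decide (D.commTerms p q = [])))

theorem hT_mul_of_a2 [Finite F] (T : StSys S F G) {a b c : ℕ} {e : ℤ}
    (h : chkRootA2 D a b c e = true) {t u : F} (ht : t ≠ 0) (hu : u ≠ 0) :
    T.hT a t * T.hT a u = T.hT a (t * u) := by
  classical
  let rt : List ℕ := [0, a, c, D.neg a, 0, b, D.neg c, D.neg b, 0]
  let sg : List ℤ := [1, 1, e, 1, 1, 1, e, 1, 1]
  let p : Fin 3 → Fin 3 → ℕ := fun i j => rt.getD (3 * (i : ℕ) + j) 0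
  let s : Fin 3 → Fin 3 → F := fun i j => ((sg.getD (3 * (i : ℕ) + j) 0 : ℤ) : F)
  simp only [chkRootA2, Bool.and_eq_true, List.all_eq_true, List.mem_range, Bool.or_eq_true,
    decide_eq_true_eq] at h
  obtain ⟨he, hall⟩ := h
  have hs2 : ∀ i j, s i j * s i j = 1 := by
    intro i j
    rcases Int.natAbs_eq_iff.mp he with rfl | rfl <;> fin_cases i <;> fin_cases j <;>
      simp [s, sg]
  have hne : ∀ {i j : Fin 3}, i ≠ j → (i : ℕ) ≠ j := fun h e => h (Fin.ext e)
  let H : Subgroup G := Subgroup.closure {g | ∃ i j : Fin 3, i ≠ j ∧ ∃ v, g = T.y (p i j) v}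
  let x : Fin 3 → Fin 3 → F → ↥H := fun i j v =>
    if hij : i ≠ j then ⟨T.y (p i j) (s i j * v), Subgroup.subset_closure ⟨i, j, hij, _, rfl⟩⟩
    else 1
  have hx : ∀ {i j : Fin 3}, i ≠ j → ∀ v, (x i j v : G) = T.y (p i j) (s i j * v) := by
    intro i j hij v
    simp only [x, dif_pos hij]
  have hlt : ∀ {i j : Fin 3}, i ≠ j → p i j < D.nroots := fun {i j} hij =>
    (((hall i i.isLt j j.isLt).resolve_left (hne hij)).1).1
  let R : SteinbergSL.RootSys (Fin 3) F ↥H :=
    { x := x
      add := fun {i j} hij a b => Subtype.ext (by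
        rw [Subgroup.coe_mul, hx hij, hx hij, hx hij, T.add, mul_add])
      comm := fun {i j k l} hij hkl hjk hil a b => Subtype.ext (by
        rw [Subgroup.coe_mul, Subgroup.coe_mul, hx hij, hx hkl]
        by_cases hs : k = i ∧ l = j
        · obtain ⟨rfl, rfl⟩ := hs
          rw [T.add, T.add, add_comm]
        have h1 := (((hall i i.isLt j j.isLt).resolve_left (hne hij)).2 k k.isLt l l.isLt)
        rcases h1 with (e | e) | e
        · exact absurd e (hne hkl)
        · exact absurd ⟨Fin.ext e.1, Fin.ext e.2⟩ hs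
        rw [if_neg (hne hjk)] at e
        simp only [Bool.or_eq_true, Bool.and_eq_true, decide_eq_true_eq] at e
        obtain ⟨⟨h2, h3⟩, h4⟩ := e.resolve_left (hne hil)
        have h5 := T.comm (p i j) (hlt hij) (p k l) (hlt hkl) h2 h3 (s i j * a) (s k l * b)
        simp only [ChevalleyDatum.commWord, show D.commTerms (p i j) (p k l) = [] from h4,
          List.map_nil, List.prod_nil, mul_one] at h5
        calc T.y (p i j) (s i j * a) * T.y (p k l) (s k l * b)
            = T.y (p i j) (s i j * a) * ((T.y (p i j) (s i j * a))⁻¹ * T.y (p k l) (s k l * b) *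
              T.y (p i j) (s i j * a)) := by rw [h5]
          _ = _ := by group)
      chev := fun {i j k} hij hjk hik a b => Subtype.ext (by
        simp only [Subgroup.coe_mul, Subgroup.coe_inv, hx hij, hx hjk, hx hik]
        have h1 := (((hall i i.isLt j j.isLt).resolve_left (hne hij)).2 j j.isLt k k.isLt)
        rcases h1 with (e | e) | e
        · exact absurd e (hne hjk)
        · exact absurd e.1.symm (hne hij)
        rw [if_pos rfl] at e
        simp only [Bool.or_eq_true, Bool.and_eq_true, decide_eq_true_eq] at e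
        obtain ⟨⟨h2, h3⟩, h4⟩ := e.resolve_left (hne hik)
        have h5 := T.y_conj (hlt hij) (hlt hjk) h2 h3 (s i j * a) (s j k * b)
        simp only [ChevalleyDatum.commWord, show D.commTerms (p i j) (p j k) = _ from h4,
          List.map_cons, List.map_nil, List.prod_cons, List.prod_nil, mul_one, pow_one] at h5
        -- the commutator term commutes with the second root element
        have h6 := (((hall j j.isLt k k.isLt).resolve_left (hne hjk)).2 i i.isLt k k.isLt)
        rcases h6 with (e6 | e6) | e6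
        · exact absurd e6 (hne hik)
        · exact absurd e6.1 (hne hij)
        rw [if_neg (hne hik).symm] at e6
        simp only [Bool.or_eq_true, Bool.and_eq_true, decide_eq_true_eq] at e6
        obtain ⟨⟨g2, g3⟩, g4⟩ := e6.resolve_left (hne hjk)
        have h7 := T.y_conj (hlt hjk) (hlt hik) g2 g3 (s j k * b) (s i k * (a * b))
        simp only [ChevalleyDatum.commWord, show D.commTerms (p j k) (p i k) = [] from g4,
          List.map_nil, List.prod_nil, mul_one] at h7
        rw [h5]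
        calc T.y (p j k) (s j k * b) * T.y (p i k) _ * (T.y (p j k) (s j k * b))⁻¹
            = T.y (p j k) (s j k * b) * T.y (p i k) (s i k * (a * b)) *
                (T.y (p j k) (s j k * b))⁻¹ := by
              congr 3
              simp only [neg_neg]
              push_cast
              show s i j * s j k * s i k * (s i j * a) * (s j k * b) = s i k * (a * b)
              linear_combination (s i k * (s j k * s j k) * a * b) * hs2 i j +
                (s i k * a * b) * hs2 j k
          _ = _ := h7)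
      gen := fun K hK => by
        rw [eq_top_iff]
        rintro ⟨g, hg⟩ -
        have hle : H ≤ K.map H.subtype := by
          refine (Subgroup.closure_le _).2 ?_
          rintro _ ⟨i, j, hij, v, rfl⟩
          refine ⟨x i j (s i j * v), hK i j hij _, ?_⟩
          rw [Subgroup.subtype_apply, hx hij, ← mul_assoc, hs2, one_mul]
        obtain ⟨k, hk, e⟩ := hle hg
        rwa [← show k = ⟨g, hg⟩ from Subtype.ext e] }
  have h01 : (0 : Fin 3) ≠ 1 := by decide
  have h10 : (1 : Fin 3) ≠ 0 := by decide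
  have hh : ∀ v : F, (R.h 0 1 v : G) = T.hT a v := by
    intro v
    simp only [SteinbergSL.RootSys.h, SteinbergSL.RootSys.w, R, Subgroup.coe_mul, hx h01, hx h10,
      StSys.hT, StSys.nT]
    simp [p, s, rt, sg]
  have := congrArg (fun g : ↥H => (g : G)) (R.h_mul (by simp) h01 ht hu)
  simp only [Subgroup.coe_mul, hh] at this
  exact this

/-- Multiplicativity passes along an edge. -/
theorem hT_mul_edge (W : Witness S) (T : StSys S F G) (i j : Fin D.rank)
    (hij : D.cartan i (D.simple j) = -1)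
    (hi : ∀ t u : F, t ≠ 0 → u ≠ 0 →
      T.hT (D.simple i) t * T.hT (D.simple i) u = T.hT (D.simple i) (t * u))
    {t u : F} (ht : t ≠ 0) (hu : u ≠ 0) :
    T.hT (D.simple j) t * T.hT (D.simple j) u = T.hT (D.simple j) (t * u) := by
  set x : F := u⁻¹ with hxdef
  have hx : x ≠ 0 := inv_ne_zero hu
  set l : F := t ^ D.cartan j (D.simple i) with hl
  have hl0 : l ≠ 0 := zpow_ne_zero _ ht
  have e1 : T.hT (D.simple j) t * T.hT (D.simple i) x * (T.hT (D.simple j) t)⁻¹ =
      T.hT (D.simple i) x := by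
    calc _ = (T.hT (D.simple j) t * T.nT (D.simple i) x * (T.hT (D.simple j) t)⁻¹) *
          (T.hT (D.simple j) t * T.nT (D.simple i) (-1) * (T.hT (D.simple j) t)⁻¹) := by
          simp only [StSys.hT]; group
      _ = _ := by
        rw [T.hT_conj_nT W i j ht, T.hT_conj_nT W i j ht, ← hl, T.nT_mul_nT,
          show -(l * -1) = l by ring, mul_inv_eq_iff_eq_mul, mul_comm l x, hi x l hx hl0]
  have e2 : T.hT (D.simple i) x * T.hT (D.simple j) t * (T.hT (D.simple i) x)⁻¹ =
      T.hT (D.simple j) (t * u) * (T.hT (D.simple j) u)⁻¹ := by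
    calc _ = (T.hT (D.simple i) x * T.nT (D.simple j) t * (T.hT (D.simple i) x)⁻¹) *
          (T.hT (D.simple i) x * T.nT (D.simple j) (-1) * (T.hT (D.simple i) x)⁻¹) := by
          simp only [StSys.hT]; group
      _ = _ := by
        rw [T.hT_conj_nT W j i hx, T.hT_conj_nT W j i hx, hij, zpow_neg_one, hxdef, inv_inv,
          T.nT_mul_nT, show -(u * -1) = u by ring, mul_comm u t]
  have e3 : T.hT (D.simple i) x * T.hT (D.simple j) t * (T.hT (D.simple i) x)⁻¹ =
      T.hT (D.simple j) t := by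
    rw [mul_inv_eq_iff_eq_mul] at e1 ⊢
    exact e1.symm
  rw [e3, eq_mul_inv_iff_mul_eq] at e2
  exact e2

end Rank

end CfsgLib.ChevMult
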